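import Cfsg.Agent.Lib.Helper11.Suzc1.Top

set_option autoImplicit false
set_option maxRecDepth 100000

namespace Cfsg.Agent.Lib.Helper11.Suzc1

set_option maxHeartbeats 0
theorem b0 : allR (guardB 10 (blk fc sc rt.get INV isH)) 4 0 = true := by decide +kernel
theorem c0 : allR (guardB 9 (cblk fc nc cc 2560 280 1766847064778384329583297500742918515827483896875618958121606201292619776 gens)) 4 0 = true := by decide +kernel

end Cfsg.Agent.Lib.Helper11.Suzc1
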